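import Cfsg.Agent.PERM.So5.Nat

set_option autoImplicit false
set_option linter.unusedSectionVars false

namespace CL.So5.KerB

open Subgroup Cfsg CL.MSS
open scoped commutatorElement

variable {G : Type*} [Group G] [Finite G]

theorem four {C F D : Subgroup G} (h1 : C ≤ F) (h2 : F ≤ D) (c : ♯D = 4 * ♯C) {a b : G} (ha : a ∈ F)
    (hb : b ∈ F) (na : a ∉ C) (nb : b ∉ C) (nab : a * b ∉ C) : D ≤ F := by
  have e : C.relIndex D = 4 :=
    Nat.eq_of_mul_eq_mul_left Nat.card_pos ((Bx.cm (h1.trans h2)).trans (c.trans (mul_comm _ _)))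
  have m := relIndex_mul_relIndex C F D h1 h2
  rw [e] at m
  obtain ⟨k, hk, i⟩ := (Nat.dvd_prime_pow Nat.prime_two (m := 2)).1 (Dvd.intro _ m)
  interval_cases k
  · exact (na (relIndex_eq_one.1 i ha)).elim
  · exact (nab ((mul_mem_iff_of_index_two i (a := ⟨a, ha⟩) (b := ⟨b, hb⟩)).2 (iff_of_false na nb))).elim
  · rw [i] at m
    exact relIndex_eq_one.1 (by omega)

variable {A A' K K' Q Q' P P' S D : Subgroup G} {π : A →* S5} {π' : A' →* S5} {n : G}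

theorem nC (h : Side A A' K Q P S π) : A ≤ 𝐍 (Q ⊓ 𝐂 P) :=
  le_normalizer_inf h.Qn (le_normalizer_centralizer h.Pn)

theorem nD (h : Ns A A' K K' Q Q' P P' S π π' n) (c : Cc S Q Q' D) : A ⊓ A' ≤ 𝐍 D :=
  c.inf ▸ le_normalizer_inf (inf_le_left.trans h.l.Qn) (inf_le_right.trans h.r.Qn)

theorem cD (h : Ns A A' K K' Q Q' P P' S π π' n) (c : Cc S Q Q' D) (hc : A ⊓ 𝐂 Q ≤ Q) {k : G}
    (hk : k ∈ K) (k2 : k * k ∈ D) {x : G} (hx : x ∈ D) : ⁅k, x⁆ ∈ Q ⊓ 𝐂 P := by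
  by_contra ny
  have kB := h.l.KB hk
  have kx := conj_mem_of_normalizes (nD h c) kB hx
  have yD : ⁅k, x⁆ ∈ D := mul_mem kx (inv_mem hx)
  have ky : ⁅k, ⁅k, x⁆⁆ = 1 := by
    have e1 : k * ⁅k, x⁆ * k⁻¹ = ⁅k, x⁆⁻¹ := by
      have := (c.comm (c.DQ k2) (c.DQ hx)).eq
      rw [commutatorElement_def]
      calc _ = (k * k * x) * k⁻¹ * x⁻¹ * k⁻¹ := by group
        _ = _ := by rw [this]; group
    rw [commutatorElement_def k, e1, ← mul_inv_rev, c.el _ (c.DQ yD), inv_one]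
  obtain ⟨t, ht, t3, t1⟩ := h.l.exists_t h.S2
  have tA := h.l.PA ht.1
  have ty := conj_mem_of_normalizes (nD h c) ⟨tA, ht.2⟩ yD
  have kt := h.l.cjK c hk ht.1 (c.DQ yD)
  rw [ky, mul_one, mul_inv_cancel, eq_comm] at kt
  obtain ⟨CD, cQ⟩ := h.l.cC c hc
  have DA : D ≤ A := c.DQ.trans (c.QS.trans (h.l.SB.trans inf_le_left))
  have hF : D ≤ (D ⊓ 𝐜 k) ⊔ (Q ⊓ 𝐂 P) := by
    refine four le_sup_right (sup_le inf_le_left CD) (by have := c.cQ; omega)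
      (a := t * ⁅k, x⁆ * t⁻¹) (b := ⁅k, x⁆⁻¹) (mem_sup_left ⟨ty, ?_⟩) (inv_mem (mem_sup_left ⟨yD, ?_⟩))
      (fun e => ny ?_) (fun e => ny (inv_mem_iff.1 e)) fun e => ny ⟨c.DQ yD, ?_⟩
    · exact mem_centralizer_singleton_iff.2 (commutatorElement_eq_one_iff_mul_comm.1 kt).symm
    · exact mem_centralizer_singleton_iff.2 (commutatorElement_eq_one_iff_mul_comm.1 ky).symm
    · simpa [mul_assoc] using conj_mem_of_normalizes' (nC h.l) tA e
    · exact h.l.fpf c hc ht t3 t1 (c.DQ yD) e.2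
  obtain ⟨z, hz, w, hw, rfl⟩ :=
    (mem_sup_of_normalizes_right (inf_le_left.trans (DA.trans (nC h.l)))).1 (hF hx)
  have := conj_mem_of_normalizes (nC h.l) (DA hz.1)
    (mul_mem (conj_mem_of_normalizes (nC h.l) kB.1 hw) (inv_mem hw))
  refine ny (by
    rw [commutatorElement_def, ← mul_assoc k, ← mem_centralizer_singleton_iff.1 hz.2]
    convert this using 1
    group)

theorem cK (h : Ns A A' K K' Q Q' P P' S π π' n) (c : Cc S Q Q' D) (hc : A ⊓ 𝐂 Q ≤ Q)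
    (_hc' : A' ⊓ 𝐂 Q' ≤ Q') (kk : K ⊓ K' = D) : K = Q ∨ ♯K = 3 * ♯Q := by
  have KB := h.l.KB
  have e := h.r.card (KB.trans inf_le_right)
  have QK : Q ≤ K := h.l.Qeq ▸ inf_le_right
  have QK' : Q' ≤ K' := h.r.Qeq ▸ inf_le_right
  have cQ := c.cQ
  have le := card_le_of_le QK
  have pos : 0 < ♯D := Nat.card_pos
  rw [kk] at e
  rcases nrm4 (H := (K.subgroupOf A').map π') (by
      rintro _ ⟨x, hx, rfl⟩
      exact (h.r.stab x).2 (KB hx).1) (by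
      rintro τ t0 ts _ ⟨x, hx, rfl⟩
      obtain ⟨y, -, rfl⟩ := (h.r.imP τ).1 ts
      exact ⟨y * x * y⁻¹, conj_mem_of_normalizes h.l.Kn ((h.r.stab y).1 t0) hx, by simp⟩) with
    b | ⟨-, b⟩ | ⟨-, b⟩ | ⟨b, -⟩
  · rw [b, card_bot] at e
    omega
  · exact .inl (eq_of_le_of_card_ge QK (by rw [e, b]; omega)).symm
  · exact .inr (by rw [e, b]; omega)
  · obtain ⟨k, hk, ek⟩ := (b (Equiv.swap 1 2)).2 (by decide)
    have k2 : (k : G) * k ∈ D := kk ▸ ⟨mul_mem hk hk, (h.r.ker (k * k)).1 (by rw [map_mul, ek]; decide)⟩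
    have q := h.l.ext c hc (h.l.PA.trans (nC h.l)) hk fun x hx => cD h c hc hk k2 hx
    refine absurd (cenV4 (σ := Equiv.swap 1 2) fun τ hτ => ?_) (by decide)
    obtain ⟨s, hs, rfl⟩ := (h.r.imS τ).1 hτ
    obtain ⟨x, hx, y, hy, es⟩ := c.dec hs
    have xA : x ∈ A' := (h.l.SB (c.QS hx)).2
    have yA : y ∈ A' := h.r.KA (QK' hy)
    have e1 : s = ⟨x, xA⟩ * ⟨y, yA⟩ := Subtype.ext es
    rw [e1, map_mul, (h.r.ker ⟨y, yA⟩).2 (QK' hy), mul_one, ← ek, ← commutatorElement_eq_one_iff_commute,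
      ← map_commutatorElement]
    exact (h.r.ker _).2 (kk.ge ((h.l.cC c hc).1 (q x hx))).2

end CL.So5.KerB
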