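import Cfsg.Agent.PERM.So5.Xc0

/-!
S3568 (suborbit of length five): from orders to the extension `L₃(4) : 2²`.
-/

set_option autoImplicit false
set_option linter.unusedSectionVars false

namespace CL.So5.L9c

open Subgroup Cfsg CL.MSS
open scoped commutatorElement

variable {G : Type*} [Group G] [Finite G]

variable {S Q Q' D : Subgroup G} {t n : G}

theorem fr {p : ℕ} [Fact p.Prime] {P H : Subgroup G} (h : SylIn p P H) {g : G} (hg : g ∈ 𝐍 H) :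
    ∃ b ∈ H, b * g ∈ 𝐍 P := by
  obtain ⟨x, hx, e⟩ := (h.cj_of_mem_normalizer hg).exists_conj h
  exact ⟨x, hx, mem_normalizer_iff_cj.2 (by rw [cj_mul, e])⟩

theorem flip_nB {m : G} (h1 : m •ᶜ Q = Q') (h2 : m •ᶜ Q' = Q) : m ∈ 𝐍 (𝐍 Q ⊓ 𝐍 Q') :=
  mem_normalizer_fintype fun g hg => ⟨mem_normalizer_iff_cj.2 (by
      rw [cj_mul, cj_mul, ← h2, ← cj_mul m⁻¹, inv_mul_cancel, cj_one, cj_eq_of_mem_normalizer hg.2]), mem_normalizer_iff_cj.2 (by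
      rw [cj_mul, cj_mul, ← h1, ← cj_mul m⁻¹, inv_mul_cancel, cj_one, cj_eq_of_mem_normalizer hg.1])⟩

theorem flip_mul {m b : G} (h1 : m •ᶜ Q = Q') (h2 : m •ᶜ Q' = Q) (hb : b ∈ 𝐍 Q ⊓ 𝐍 Q') :
    (b * m) •ᶜ Q = Q' ∧ (b * m) •ᶜ Q' = Q := by
  rw [cj_mul, cj_mul, h1, h2]
  exact ⟨cj_eq_of_mem_normalizer hb.2, cj_eq_of_mem_normalizer hb.1⟩

theorem c (h : L9 S Q Q' D t n) (nt : t ≠ 1 ∧ S ⊓ 𝐍 (zpowers t) = ⊥ ∧ ♯(S ⊔ zpowers t) = 192)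
    (c : ♯(𝐍 Q ⊓ 𝐍 Q') = 384) {y : G} (hy : y ∈ 𝐍 Q ⊓ 𝐍 Q') (iv : y * t * y⁻¹ * t ∈ S)
    (nf : ∀ y ∈ 𝐍 Q ⊓ 𝐍 Q', y * t * y⁻¹ * t ∈ S → ∀ g ∈ 𝐍 Q, g * y * g⁻¹ ∉ S) : ∃ γ φ, Lc S Q Q' D t γ φ := by
  obtain ⟨t1, SL, c0⟩ := nt
  have cc := h.toCc
  have : Fact (Nat.Prime 3) := ⟨Nat.prime_three⟩
  have cZ : ♯(zpowers t) = 3 := by rw [Nat.card_zpowers, orderOf_eq_prime h.t3 t1]
  have pZ : IsPGroup 3 (zpowers t) := IsPGroup.of_card (n := 1) cZ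
  have z3 : ∀ w ∈ zpowers t, w ^ 3 = 1 := by
    rintro _ ⟨k, rfl⟩
    rw [← zpow_natCast, ← zpow_mul, mul_comm, zpow_mul, zpow_natCast, h.t3, one_zpow]
  have z2 : ∀ w ∈ zpowers t, w * w = 1 → w = 1 := fun w hw e => by
    rw [← z3 w hw, pow_succ, pow_two, e, one_mul]
  have zc : ∀ {g : G}, Commute g t → ∀ w ∈ zpowers t, Commute g w := by
    rintro g e _ ⟨k, rfl⟩
    exact e.zpow_right k
  have tB : t ∈ 𝐍 Q ⊓ 𝐍 Q' := ⟨h.tQ, h.tQ'⟩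
  have SB : S ≤ 𝐍 Q ⊓ 𝐍 Q' := le_inf cc.nQ cc.symm.nQ
  have BS : 𝐍 Q ⊓ 𝐍 Q' ≤ 𝐍 S := fun g hg => (cc.fix_nS hg.1 hg.2).1
  have B0 : S ⊔ zpowers t ≤ 𝐍 Q ⊓ 𝐍 Q' := sup_le SB (zpowers_le.2 tB)
  have sy : SylIn 3 (zpowers t) (𝐍 Q ⊓ 𝐍 Q') := sylIn_of_not_dvd_relIndex pZ (zpowers_le.2 tB) (by
    rw [Two.ri (zpowers_le.2 tB) (n := 128) (by rw [c, cZ])]; decide)
  obtain ⟨b, hb, φL⟩ := fr (sy.of_le le_sup_right B0) (g := y) (mem_normalizer_of_cj_le (by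
    rw [cj_sup, cj_zpowers, cj_eq_of_mem_normalizer (BS hy)]
    exact sup_le le_sup_left (zpowers_le.2 (by
      simpa using mul_mem (mem_sup_left iv) (mem_sup_right (inv_mem (mem_zpowers t)) : t⁻¹ ∈ S ⊔ zpowers t)))))
  have φB : b * y ∈ 𝐍 Q ⊓ 𝐍 Q' := mul_mem (B0 hb) hy
  have φS : b * y * t * (b * y)⁻¹ * t ∈ S := by
    obtain ⟨s, hs, w, hw, e⟩ := (mem_sup_of_normalizes_left (zpowers_le.2 (BS tB))).1 hb
    have k1 := (mem_normalizer_iff.1 (BS (B0 hb)) _).1 iv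
    have k2 := mul_mem hs ((mem_normalizer_iff.1 (BS (inv_mem tB)) _).1 (inv_mem hs))
    have k3 : w * t⁻¹ * w⁻¹ = t⁻¹ := by rw [← (zc (Commute.refl t) w hw).inv_left.eq, mul_inv_cancel_right]
    convert mul_mem k1 k2 using 1
    rw [← e]
    calc _ = s * w * (y * t * y⁻¹ * t) * (s * w)⁻¹ * (s * (w * t⁻¹ * w⁻¹) * s⁻¹ * t) := by group
      _ = _ := by rw [k3]; group
  generalize b * y = φ at φL φB φS
  have φt : φ * t * φ⁻¹ = t⁻¹ := eq_inv_of_mul_eq_one_left (mem_bot.1 (SL.le ⟨φS,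
    le_normalizer (mul_mem ((mem_normalizer_iff.1 φL t).1 (mem_zpowers t)) (mem_zpowers t))⟩))
  have cL : 𝐜 t ≤ 𝐍 (zpowers t) := fun g hg => mem_normalizer_iff_cj.2 (by
    rw [cj_zpowers, mem_centralizer_singleton_iff.1 hg, mul_inv_cancel_right])
  have CZ : 𝐍 Q ⊓ 𝐍 Q' ⊓ 𝐜 t ≤ zpowers t := by
    have k1 := Two.cle (𝐍 (zpowers t)) SB
    rw [inf_comm _ S, SL, card_bot, Two.ri SB (n := 6) (by rw [c, h.cards.2.2]), inf_comm] at k1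
    have k2 := Xc0.two_le (inf_le_inf_left (𝐍 Q ⊓ 𝐍 Q') cL) (x := φ) ⟨φB, φL⟩ fun e => t1 (z2 t (mem_zpowers t) (by
      rw [mem_centralizer_singleton_iff.1 e.2, mul_inv_cancel_right] at φt
      exact mul_eq_one_iff_eq_inv.2 φt))
    exact (eq_of_le_of_card_ge (le_inf (zpowers_le.2 tB) (zpowers_le.2 (mem_centralizer_singleton_iff.2 rfl)))
      (by omega)).ge
  have φt' : φ * t⁻¹ * φ⁻¹ = t := by rw [← conj_inv, φt, inv_inv]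
  have φφ : φ * φ = 1 := by
    have m : φ * φ ∈ zpowers t := CZ ⟨mul_mem φB φB, mem_centralizer_singleton_iff.2 (by
      rw [← mul_inv_eq_iff_eq_mul, show φ * φ * t * (φ * φ)⁻¹ = φ * (φ * t * φ⁻¹) * φ⁻¹ by group, φt, φt'])⟩
    obtain ⟨k, e⟩ := id m
    have e' : t ^ k = φ * φ := e
    refine z2 _ m (mul_eq_one_iff_eq_inv.2 ?_)
    calc φ * φ = φ * t ^ k * φ⁻¹ := by rw [e']; group
      _ = _ := by rw [← conj_zpow, φt, inv_zpow, e']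
  obtain ⟨m, f1, f2, mt⟩ : ∃ m : G, m •ᶜ Q = Q' ∧ m •ᶜ Q' = Q ∧ Commute m t := by
    classical
    obtain ⟨b, hb, mL⟩ := fr sy (flip_nB h.fl h.fl')
    obtain ⟨f1, f2⟩ := flip_mul h.fl h.fl' hb
    generalize b * n = m at mL f1 f2
    have k := (mem_normalizer_iff.1 mL t).1 (mem_zpowers t)
    rw [mem_zpowers_iff_mem_range_orderOf, orderOf_eq_prime h.t3 t1] at k
    simp only [Finset.mem_image, Finset.mem_range] at k
    obtain ⟨i, hi, e⟩ := k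
    interval_cases i
    · exact absurd (by simpa using e.symm) t1
    · exact ⟨m, f1, f2, mul_inv_eq_iff_eq_mul.1 (by rw [← e, pow_one])⟩
    · refine ⟨φ * m, (flip_mul f1 f2 φB).1, (flip_mul f1 f2 φB).2, mul_inv_eq_iff_eq_mul.1 ?_⟩
      rw [show φ * m * t * (φ * m)⁻¹ = φ * (m * t * m⁻¹) * φ⁻¹ by group, ← e,
        show t ^ 2 = t⁻¹ from eq_inv_of_mul_eq_one_left (by rw [← pow_succ, h.t3]), φt']
  have mB : m * m ∈ 𝐍 Q ⊓ 𝐍 Q' :=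
    ⟨mem_normalizer_iff_cj.2 (by rw [cj_mul, f1, f2]), mem_normalizer_iff_cj.2 (by rw [cj_mul, f2, f1])⟩
  have mZ := CZ ⟨mB, mem_centralizer_singleton_iff.2 (mt.mul_left mt)⟩
  obtain ⟨g1, g2⟩ := flip_mul f1 f2 mB
  have γγ : m * m * m * (m * m * m) = 1 := by rw [← z3 _ mZ, pow_three]; simp only [mul_assoc]
  have γt : Commute (m * m * m) t := (mt.mul_left mt).mul_left mt
  generalize m * m * m = γ at g1 g2 γγ γt
  have φγ : Commute φ γ := by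
    have k : Commute (φ * γ * φ⁻¹) t := φt' ▸ γt.inv_right.conj φ
    have wB : φ * γ * φ⁻¹ * γ⁻¹ ∈ 𝐍 Q ⊓ 𝐍 Q' := by
      simpa only [mul_assoc] using mul_mem φB ((mem_normalizer_iff.1 (flip_nB g1 g2) _).1 (inv_mem φB))
    have wZ := CZ ⟨wB, mem_centralizer_singleton_iff.2 (k.mul_left γt.inv_left)⟩
    refine commutatorElement_eq_one_iff_commute.1 ((commutatorElement_def _ _).trans (z2 _ wZ ?_))
    have e : φ * γ * φ⁻¹ * (φ * γ * φ⁻¹) = 1 := by rw [conj_mul, γγ, mul_one, mul_inv_cancel]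
    have q := (zc γt _ wZ).eq
    rw [← inv_mul_cancel_right (φ * γ * φ⁻¹) γ] at e
    generalize φ * γ * φ⁻¹ * γ⁻¹ = w at e q ⊢
    rwa [mul_assoc, ← mul_assoc γ, q, mul_assoc, γγ, mul_one] at e
  have p : Lp S Q Q' D t γ φ := ⟨{ h with fl := g1, fl' := g2 }, γγ, γt, φφ, φt, φγ, φB.1, φB.2⟩
  obtain ⟨-, -, cT, pT, TN, -⟩ := p.T
  exact ⟨γ, φ, p.toL9, γγ, γt, φφ, φt, φγ, φB.1, φB.2, (cc.syl (le_sup_left.trans le_sup_left)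
    (sylIn_of_not_dvd_relIndex pT TN (by
      rw [Two.ri TN (n := 3) (by rw [cc.card_nS h.fl h.fl', c, cT])]; decide)) p.u16).2,
    nf φ φB (by rw [φt, inv_mul_cancel]; exact one_mem S)⟩

end CL.So5.L9c
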