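import Cfsg.Agent.PERM.So5.Bas
import Cfsg.Agent.SOLV.Primitive

/-!
S3568 (suborbit of length five): Thompson factorisation by hand in the soluble case.
-/

set_option autoImplicit false
set_option linter.unusedSectionVars false

namespace CL.So5.SolA

open Subgroup Cfsg CL.MSS

variable {G : Type*} [Group G] [Finite G]

theorem le_N {X H : Subgroup G} (h : ∀ g ∈ H, ∀ a ∈ X, g * a * g⁻¹ ∈ X) : H ≤ 𝐍 X := fun g hg =>
  mem_normalizer_iff.2 fun a => ⟨h g hg a, fun ha => by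
    simpa [mul_assoc] using h _ (H.inv_mem hg) _ ha⟩

/-- `Ω₁ Z(K)` -/
def om (K : Subgroup G) : Subgroup G where
  carrier := {v | v ∈ K ∧ v ∈ 𝐂 K ∧ v * v = 1}
  one_mem' := ⟨one_mem _, one_mem _, mul_one _⟩
  mul_mem' := fun {a b} ha hb => ⟨mul_mem ha.1 hb.1, mul_mem ha.2.1 hb.2.1, by
    rw [mul_assoc, ← mul_assoc b, ha.2.1 b hb.1, mul_assoc, hb.2.2, mul_one, ha.2.2]⟩
  inv_mem' := fun {a} ha => ⟨inv_mem ha.1, inv_mem ha.2.1, by rw [← mul_inv_rev, ha.2.2, inv_one]⟩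

theorem om_N (K : Subgroup G) : 𝐍 K ≤ 𝐍 (om K) := le_N fun g hg a ha =>
  ⟨(mem_normalizer_iff.1 hg a).1 ha.1, fun k hk => by
    have h1 := ha.2.1 _ ((mem_normalizer_iff.1 (inv_mem hg) k).1 hk)
    calc k * (g * a * g⁻¹) = g * (g⁻¹ * k * g⁻¹⁻¹ * a) * g⁻¹ := by group
      _ = _ := by rw [h1]; group,
    by rw [show g * a * g⁻¹ * (g * a * g⁻¹) = g * (a * a) * g⁻¹ by group, ha.2.2]; group⟩

theorem om_ne {K : Subgroup G} (h2 : IsPGroup 2 K) (h : K ≠ ⊥) : om K ≠ ⊥ := by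
  have : Nontrivial K := (nontrivial_iff_ne_bot _).2 h
  have : Nontrivial (center K) := h2.center_nontrivial
  obtain ⟨n, hn, e⟩ := (h2.to_subgroup (center K)).nontrivial_iff_card.1 inferInstance
  obtain ⟨z, hz⟩ := exists_prime_orderOf_dvd_card' (G := center K) 2 (e ▸ dvd_pow_self 2 hn.ne')
  intro e
  have h1 : ((z : K) : G) ∈ om K := ⟨z.1.2, fun k hk => congrArg Subtype.val (mem_center_iff.1 z.2 ⟨k, hk⟩), by
    have := pow_orderOf_eq_one z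
    rw [hz, pow_two] at this
    exact congrArg (fun y : center K => ((y : K) : G)) this⟩
  rw [e, mem_bot] at h1
  have : z = 1 := Subtype.ext (Subtype.ext h1)
  simp [this] at hz

/-- elementary abelian subgroups of `B` of largest order -/
def Mx (B E : Subgroup G) : Prop :=
  E ≤ B ∧ (∀ y ∈ E, y * y = 1) ∧ ∀ F : Subgroup G, F ≤ B → (∀ y ∈ F, y * y = 1) → ♯F ≤ ♯E

theorem exists_Mx (B : Subgroup G) : ∃ E, Mx B E := by
  obtain ⟨E, h1, h2⟩ := Set.exists_max_image {E : Subgroup G | E ≤ B ∧ ∀ y ∈ E, y * y = 1}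
    (fun E => ♯E) (Set.toFinite _) ⟨⊥, bot_le, fun y hy => by rw [mem_bot.1 hy, mul_one]⟩
  exact ⟨E, h1.1, h1.2, fun F a b => h2 F ⟨a, b⟩⟩

theorem J_N {B H : Subgroup G} (h : ∀ g ∈ H, ∀ E, Mx B E → g •ᶜ E ≤ B) : H ≤ 𝐍 (sSup {E | Mx B E}) :=
  le_N fun g hg => cj_le_iff_forall.1 (cj_le_iff.2 (sSup_le fun E hE => cj_le_iff.1 (le_sSup
    ⟨h g hg E hE, by
      rintro _ ⟨y, hy, rfl⟩
      change g * y * g⁻¹ * (g * y * g⁻¹) = 1
      rw [show g * y * g⁻¹ * (g * y * g⁻¹) = g * (y * y) * g⁻¹ by group, hE.2.1 y hy]; group,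
    fun F a b => (card_cj g E).symm ▸ hE.2.2 F a b⟩)))

theorem mem5 {Γ : Type*} [Group Γ] [Finite Γ] {j : ℕ} (hΓ : Nat.card Γ = 5 * 2 ^ j) (N : Subgroup Γ) [N.Normal]
    (h5 : 5 ∣ ♯N) {y : Γ} (hy : orderOf y = 5) : y ∈ N := by
  obtain ⟨m, hm⟩ := h5
  have h1 := N.card_mul_index
  rw [hΓ, hm, mul_assoc] at h1
  have h2 : N.index ∣ 2 ^ j := Dvd.intro_left m (Nat.eq_of_mul_eq_mul_left (by norm_num) h1)
  have h3 : (orderOf y).Coprime N.index :=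
    hy ▸ (Nat.Coprime.pow_right j (by norm_num)).coprime_dvd_right h2
  obtain ⟨k, hk⟩ := exists_pow_eq_self_of_coprime h3.symm
  exact hk ▸ pow_mem (N.pow_index_mem y) k

theorem inv_unique {Γ : Type*} [Group Γ] {c σ τ : Γ} (h4 : c ^ 4 = 1) (hσ : σ ∈ zpowers c) (hτ : τ ∈ zpowers c)
    (σ2 : σ * σ = 1) (τ2 : τ * τ = 1) (σ1 : σ ≠ 1) (τ1 : τ ≠ 1) : σ = τ := by
  have fin : IsOfFinOrder c := isOfFinOrder_iff_pow_eq_one.2 ⟨4, by norm_num, h4⟩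
  have key : ∀ ρ ∈ zpowers c, ρ * ρ = 1 → ρ ≠ 1 → (c ^ 2 = 1 ∧ ρ = c) ∨ (c ^ 2 ≠ 1 ∧ ρ = c ^ 2) := by
    intro ρ hρ h2 h1
    obtain ⟨i, rfl⟩ := (fin.mem_powers_iff_mem_zpowers.2 hρ)
    change c ^ i * c ^ i = 1 at h2
    change c ^ i ≠ 1 at h1
    change _ ∧ c ^ i = c ∨ _ ∧ c ^ i = _
    rw [pow_eq_pow_mod i h4] at h1 h2 ⊢
    have : i % 4 < 4 := Nat.mod_lt _ (by norm_num)
    generalize i % 4 = k at *
    interval_cases k
    · simp at h1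
    · exact Or.inl ⟨by rw [← h2, ← pow_add], pow_one c⟩
    · exact Or.inr ⟨h1, rfl⟩
    · have e : c ^ 2 = 1 := by
        rw [← pow_add, show 3 + 3 = 4 + 2 from rfl, pow_add, h4, one_mul] at h2; exact h2
      exact Or.inl ⟨e, by rw [pow_succ, e, one_mul]⟩
  rcases key σ hσ σ2 σ1 with ⟨a, b⟩ | ⟨a, b⟩ <;> rcases key τ hτ τ2 τ1 with ⟨a', b'⟩ | ⟨a', b'⟩
  · rw [b, b']
  · exact absurd a a'
  · exact absurd a' a
  · rw [b, b']

theorem cen5 {V : Subgroup G} (h2 : IsPGroup 2 V) {x : G} (x5 : orderOf x = 5) (hx : x ∈ 𝐍 V)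
    (h4 : (𝐜 x).relIndex V ≤ 4) : V ≤ 𝐜 x := by
  have : Fact (Nat.Prime 5) := ⟨by norm_num⟩
  have h1 := CL.Prim.card_modEq_card_inf_centralizer (p := 5) (A := zpowers x) (E := V)
    (IsPGroup.of_card (n := 1) (by rw [Nat.card_zpowers, x5, pow_one])) (zpowers_le.2 hx)
  rw [zpowers_eq_closure, centralizer_closure, inf_comm, ← card_inf_mul_relIndex (𝐜 x) V] at h1
  obtain ⟨k, hk⟩ := (h2.to_le (inf_le_right : 𝐜 x ⊓ V ≤ V)).exists_card_eq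
  have h0 : (𝐜 x).relIndex V ≠ 0 := index_ne_zero_of_finite
  have h3 : (𝐜 x).relIndex V ≡ 1 [MOD 5] := Nat.ModEq.cancel_left_of_coprime (c := ♯(𝐜 x ⊓ V))
    (by rw [hk]; exact Nat.Coprime.pow_right k (by norm_num)) (by rwa [mul_one])
  unfold Nat.ModEq at h3
  exact relIndex_eq_one.1 (by omega)

variable {A A' K : Subgroup G} {π : A →* S5}

theorem fact (h : Am A A') (a : Act A A' K π) (h2 : IsPGroup 2 (A ⊓ A' : Subgroup G)) {x : G} (hx : x ∈ A) (x5 : orderOf x = 5) :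
    x ∈ 𝐂 K ∨ ∃ X : Subgroup G, X ≠ ⊥ ∧ X ≤ A ⊓ A' ∧ A ≤ 𝐍 X ∧ 𝐍 (A ⊓ A') ≤ 𝐍 X := by
  refine or_iff_not_imp_left.2 fun xK => ?_
  obtain ⟨j, hj⟩ := h2.exists_card_eq
  have cA : ♯A = 5 * 2 ^ j := by rw [h.card, hj]
  obtain ⟨f, hf, c, -, f5, -, c4, hc, nf, iv, mn⟩ := f20 (H := π.range)
    (fun i => let ⟨y, hy⟩ := a.tr i; ⟨_, ⟨y, rfl⟩, hy⟩) fun h3 => by
      have := h3.trans (card_range_dvd π)
      rw [cA] at this
      rcases (Nat.prime_three.dvd_mul).1 this with e | e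
      · omega
      · have := Nat.prime_three.dvd_of_dvd_pow e; omega
  have x5' : orderOf (⟨x, hx⟩ : A) = 5 := by rw [← x5]; exact (orderOf_coe _).symm
  have m5 : ∀ N : Subgroup A, N.Normal → f ∈ N.map π → (⟨x, hx⟩ : A) ∈ N := by
    rintro N hN ⟨g, hg, rfl⟩
    exact mem5 cA N ((f5 ▸ orderOf_map_dvd π g).trans (orderOf_dvd_natCard _ hg)) x5'
  have KB := a.KB
  have Kn := a.Kn
  have CK : ∀ y ∈ A, y ∈ 𝐂 K → y ∈ K := by
    intro y hy hyc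
    by_contra yK
    have hN : ((𝐂 K).subgroupOf A).Normal := normal_subgroupOf_of_le_normalizer
      (Kn.trans (normalizer_le_normalizer_centralizer _))
    refine xK (m5 _ hN (mn _ (map_le_range _ _) (fun e => yK ((a.ker ⟨y, hy⟩).1
      (mem_bot.1 (e.le ⟨⟨y, hy⟩, hyc, rfl⟩)))) ?_))
    refine le_N ?_
    rintro _ ⟨g, rfl⟩ _ ⟨w, hw, rfl⟩
    exact ⟨_, hN.conj_mem w hw g, by simp⟩
  have xf : π ⟨x, hx⟩ ∈ zpowers f := by
    obtain ⟨g, hg⟩ := hf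
    refine m5 ((zpowers f).comap π) ⟨fun n hn g => ?_⟩ ⟨g, hg ▸ mem_zpowers _, hg⟩
    obtain ⟨k, hk⟩ := hn
    change π (g * n * g⁻¹) ∈ zpowers f
    rw [map_mul, map_mul, map_inv, ← hk, ← conj_zpow]
    exact zpow_mem (nf _ ⟨g, rfl⟩) k
  have K0 : K ≠ ⊥ := fun e => xK fun k hk => by rw [mem_bot.1 (e.le hk), one_mul, mul_one]
  have Z0 := om_ne h2 fun e => K0 (le_bot_iff.1 (KB.trans e.le))
  by_cases hJ : ∀ E, Mx (A ⊓ A') E → E ≤ K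
  · refine ⟨sSup {E | Mx (A ⊓ A') E}, fun e => Z0 ?_, sSup_le fun E hE => hE.1,
      J_N fun g hg E hE => (cj_le_of_mem_normalizer (hJ E hE) (Kn hg)).trans KB,
      J_N fun g hg E hE => cj_le_of_mem_normalizer hE.1 hg⟩
    obtain ⟨E, hE⟩ := exists_Mx (A ⊓ A')
    have h1 := hE.2.2 (om (A ⊓ A')) (fun _ h => h.1) fun _ h => h.2.2
    rw [le_bot_iff.1 ((le_sSup (s := {E | Mx (A ⊓ A') E}) hE).trans e.le), card_bot] at h1
    exact (card_le_one_iff_eq_bot _).1 h1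
  push Not at hJ
  obtain ⟨E, hE, EK⟩ := hJ
  obtain ⟨e, he, eK⟩ := SetLike.not_le_iff_exists.1 EK
  have pe : ∀ y (hy : y ∈ E), y ∉ K → π ⟨y, (hE.1 hy).1⟩ 0 = 0 ∧ π ⟨y, (hE.1 hy).1⟩ * π ⟨y, (hE.1 hy).1⟩ = 1 ∧
      π ⟨y, (hE.1 hy).1⟩ ≠ 1 := fun y hy yK => ⟨(a.stab _).2 (hE.1 hy).2, by
    rw [← map_mul, ← map_one π]; exact congrArg π (Subtype.ext (hE.2.1 y hy)), fun e => yK ((a.ker _).1 e)⟩
  obtain ⟨e0, e2, e1⟩ := pe e he eK
  have i2 : K.relIndex E = 2 := index_eq_two_iff.2 ⟨⟨e, he⟩, fun b => by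
    by_cases hb : (b : G) ∈ K
    · exact Or.inr ⟨hb, fun h => eK ((K.mul_mem_cancel_left hb).1 h)⟩
    · obtain ⟨b0, b2, b1⟩ := pe b b.2 hb
      have : (b : G) * e ∈ K := (a.ker ((⟨b, (hE.1 b.2).1⟩ : A) * ⟨e, (hE.1 he).1⟩)).1 (by
        rw [map_mul, inv_unique c4 (hc _ ⟨_, rfl⟩ b0) (hc _ ⟨_, rfl⟩ e0) b2 e2 b1 e1, e2])
      exact Or.inl ⟨this, hb⟩⟩
  have VK : om K ≤ K := fun _ h => h.1
  have KV : K ≤ 𝐂 (om K) := fun k hk v hv => (hv.2.1 k hk).symm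
  have AV : A ≤ 𝐍 (om K) := Kn.trans (om_N K)
  have n0 : K ⊓ E ≤ 𝐍 (om K) := inf_le_left.trans (a.KA.trans AV)
  have c1 := hE.2.2 (K ⊓ E ⊔ om K) (sup_le (inf_le_left.trans KB) (VK.trans KB)) fun y hy => by
    have hy' : y ∈ ((K ⊓ E ⊔ om K : Subgroup G) : Set G) := hy
    rw [coe_mul_of_left_le_normalizer_right _ _ n0] at hy'
    obtain ⟨u, hu, v, hv, rfl⟩ := hy'
    change u * v * (u * v) = 1
    rw [mul_assoc, ← mul_assoc v, ← hv.2.1 u hu.1, mul_assoc, hv.2.2, mul_one, hE.2.1 u hu.2]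
  have c2 := card_sup_mul_card_inf_of_le_normalizer n0
  have c3 := card_inf_mul_relIndex K E
  have c4' := card_inf_mul_relIndex (K ⊓ E) (om K)
  have r1 : (K ⊓ E).relIndex (om K) ≤ 2 := by
    have p1 : 0 < ♯(K ⊓ E) := Nat.card_pos
    have p2 : 0 < ♯(K ⊓ E ⊓ om K) := Nat.card_pos
    rw [i2] at c3
    rw [← c4', ← mul_assoc, mul_right_comm, mul_comm _ (♯(K ⊓ E ⊓ om K)), mul_comm _ (♯(K ⊓ E ⊓ om K))] at c2
    have := Nat.eq_of_mul_eq_mul_left p2 c2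
    exact Nat.le_of_mul_le_mul_left (by omega) p1
  have ec : K ⊓ E ≤ 𝐜 e := fun y hy => mem_centralizer_singleton_iff.2 (by
    rw [← inv_eq_of_mul_eq_one_right (hE.2.1 _ (mul_mem hy.2 he)), mul_inv_rev,
      inv_eq_of_mul_eq_one_right (hE.2.1 _ hy.2), inv_eq_of_mul_eq_one_right (hE.2.1 _ he)])
  have r2 : (𝐜 e).relIndex (om K) ≤ 2 := (relIndex_le_of_le_left ec index_ne_zero_of_finite).trans r1
  have r3 : (𝐜 (x * e * x⁻¹)).relIndex (om K) ≤ 2 := by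
    rwa [← cj_centralizer_singleton, ← cj_eq_of_mem_normalizer (AV hx),
      relIndex_map_map_of_injective _ _ (MulAut.conj x).injective]
  have uK : x⁻¹ * x⁻¹ * (x * e * x⁻¹ * e) ∈ K := by
    refine (a.ker ((⟨x, hx⟩ : A)⁻¹ * ⟨x, hx⟩⁻¹ * (⟨x, hx⟩ * ⟨e, (hE.1 he).1⟩ * ⟨x, hx⟩⁻¹ * ⟨e, (hE.1 he).1⟩))).1 ?_
    obtain ⟨k, hk⟩ := xf
    have h3 := iv _ ⟨_, rfl⟩ e0 e2 e1
    simp only [map_mul, map_inv, ← hk]
    generalize π ⟨e, (hE.1 he).1⟩ = ε at *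
    have h4 : ε * (f ^ k)⁻¹ * ε⁻¹ = f ^ k := by rw [← zpow_neg, ← conj_zpow, h3, inv_zpow', neg_neg]
    rw [inv_eq_of_mul_eq_one_right e2] at h4
    calc _ = (f ^ k)⁻¹ * (ε * (f ^ k)⁻¹ * ε) := by group
      _ = 1 := by rw [h4, inv_mul_cancel]
  have cx : (𝐜 (x * e * x⁻¹) ⊓ 𝐜 e) ⊓ om K ≤ 𝐜 x := fun v hv => by
    have h3 : Commute v (x * e * x⁻¹ * e) :=
      Commute.mul_right (mem_centralizer_singleton_iff.1 hv.1.1) (mem_centralizer_singleton_iff.1 hv.1.2)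
    have h4 : Commute v (x⁻¹ * x⁻¹ * (x * e * x⁻¹ * e)) := (hv.2.2.1 _ uK).symm
    have h5 := ((h4.mul_right h3.inv_right).inv_right).pow_right 3
    have h6 : (x⁻¹ * x⁻¹ * (x * e * x⁻¹ * e) * (x * e * x⁻¹ * e)⁻¹)⁻¹ ^ 3 = x := by
      rw [show (x⁻¹ * x⁻¹ * (x * e * x⁻¹ * e) * (x * e * x⁻¹ * e)⁻¹)⁻¹ ^ 3 = x ^ 5 * x by group, ← x5,
        pow_orderOf_eq_one, one_mul]
    exact mem_centralizer_singleton_iff.2 (h6 ▸ h5)
  have Vx := cen5 (h2.to_le (VK.trans KB)) x5 (AV hx) (by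
    refine (relIndex_le_of_le_left cx index_ne_zero_of_finite).trans ?_
    rw [inf_relIndex_right]
    exact relIndex_inf_le.trans (Nat.mul_le_mul r3 r2))
  refine ⟨om (A ⊓ A'), Z0, fun _ h => h.1, ?_, om_N _⟩
  have xZ : x ∈ 𝐍 (om (A ⊓ A')) := centralizer_le_normalizer _ fun z hz =>
    mem_centralizer_singleton_iff.1 (Vx (x := z)
      ⟨CK z hz.1.1 (centralizer_le KB hz.2.1), centralizer_le KB hz.2.1, hz.2.2⟩)
  rcases h.maxB (X := A ⊓ 𝐍 (om (A ⊓ A'))) (le_inf inf_le_left (le_normalizer.trans (om_N _))) inf_le_left with e | e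
  · have h3 := orderOf_dvd_natCard _ (e.le ⟨hx, xZ⟩)
    rw [x5, hj] at h3
    have := (show Nat.Prime 5 by norm_num).dvd_of_dvd_pow h3
    omega
  · exact e.ge.trans inf_le_right

end CL.So5.SolA
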