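import Cfsg.Agent.PERM.So5.Two
import Cfsg.Agent.S0111

/-!
S3568 (suborbit of length five): transfer in `L₃(4) : 2₁`, the last two steps.
-/

set_option autoImplicit false
set_option linter.unusedSectionVars false

namespace CL.So5.XbB

open Subgroup Cfsg CL.MSS
open scoped commutatorElement

variable {G : Type*} [Group G] [Finite G]

/-- all the data of the first four steps -/
structure Dt (S Q Q' D R : Subgroup G) (t u z d : G) : Prop where
  h : Lb S Q Q' D t u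
  zD : z ∈ D
  dD : d ∈ D
  z1 : z ≠ 1
  dz : d ∉ zpowers z
  uz : Commute u z
  ud : u * d * u⁻¹ = d * z
  Dm : ∀ e ∈ D, e = 1 ∨ e = z ∨ e = d ∨ e = d * z
  cz : ∀ {x : G}, x ∈ Q → x ∉ D → ⁅x, u * x * u⁻¹⁆ = z
  inv : ∀ {v : G}, v ∈ S ⊔ zpowers u → v ∉ S → v * v = 1 → ∃ x ∈ Q, v = x * u * x⁻¹
  sqD : ∀ {v : G}, v ∈ S ⊔ zpowers u → v * v * (v * v) = 1 → v * v ∈ D
  hR : R = (S ⊔ zpowers u) ⊓ 𝐍 (zpowers u ⊔ zpowers z)
  R0 : ♯R = 32 ∧ D ≤ R ∧ u ∈ R ∧ S ⊔ zpowers u ≤ 𝐍 R ∧ (∀ x ∈ S ⊔ zpowers u, x * x ∈ R) ∧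
    (∀ r ∈ R, r * r = 1 ∨ r * r = z) ∧ (∃ r ∈ R, r * r = z) ∧ ∀ r ∈ R, r * r = 1 → r ∈ D ∨ ∃ x ∈ Q, r = x * u * x⁻¹

theorem cnt (M : Subgroup G) (y : G) (C : Set G) (h : ∀ w, w ∈ C ↔ ∃ g ∈ M, g * y * g⁻¹ = w) :
    ♯M = C.ncard * ♯(M ⊓ 𝐜 y) := by
  rw [Ax.cnt M y {w | y * w ∈ C} (fun g hg => ⟨y⁻¹ * (g * y * g⁻¹), by simpa using (h _).2 ⟨g, hg, rfl⟩, by group⟩)
    fun w hw => (h _).1 hw]
  congr 1
  exact Nat.card_congr ((Equiv.mulLeft y).subtypeEquiv fun _ => Iff.rfl)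

variable {S Q Q' D R : Subgroup G} {t u z d : G}

namespace Dt

variable (k : Dt S Q Q' D R t u z d)
include k

theorem cc : Cc S Q Q' D := k.h.toL9.toCc

theorem DS : D ≤ S := k.cc.DQ.trans k.cc.QS

theorem zz : z * z = 1 := k.cc.el z (k.cc.DQ k.zD)

theorem dd : d * d = 1 := k.cc.el d (k.cc.DQ k.dD)

theorem uS : u ∉ S := (k.cc.flip_not k.h.fl).2

theorem Tz {x : G} (hx : x ∈ S ⊔ zpowers u) : x * z * x⁻¹ = z := by
  have : S ⊔ zpowers u ≤ 𝐜 z := sup_le (fun s hs => mem_centralizer_singleton_iff.2 (k.cc.cen k.zD hs).symm)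
    (zpowers_le.2 (mem_centralizer_singleton_iff.2 k.uz))
  rw [mem_centralizer_singleton_iff.1 (this hx), mul_inv_cancel_right]

theorem TD : S ⊔ zpowers u ≤ 𝐍 D :=
  sup_le (fun s hs => centralizer_le_normalizer _ (mem_centralizer_iff.2 fun _ he => k.cc.cen he hs))
    (zpowers_le.2 (k.cc.flip_nS k.h.fl k.h.fl').2)

theorem cu {e : G} (he : e ∈ D) (c : Commute u e) : e = 1 ∨ e = z := by
  have nd : ¬ Commute u d := fun c => k.z1 (by
    have := k.ud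
    rwa [c.eq, mul_inv_cancel_right, left_eq_mul] at this)
  rcases k.Dm e he with h | h | rfl | rfl
  · exact Or.inl h
  · exact Or.inr h
  · exact absurd c nd
  · exact absurd (by simpa using c.mul_right k.uz.inv_right) nd

theorem cd {r : G} (hz : r * z * r⁻¹ = z) (hd : r * d * r⁻¹ ∈ D) : r * d * r⁻¹ = d ∨ r * d * r⁻¹ = d * z := by
  rcases k.Dm _ hd with h | h | h
  · exact absurd (by rw [conj_eq_one_iff.1 h]; exact one_mem _) k.dz
  · rw [← hz, mul_left_inj, mul_right_inj] at h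
    exact absurd (h ▸ mem_zpowers d) k.dz
  · exact h

theorem nD {a : G} (hz : a * z * a⁻¹ = z) (hd : a * d * a⁻¹ ∈ D) : a ∈ 𝐍 D := by
  refine mem_normalizer_fintype fun e he => ?_
  rcases k.Dm e he with rfl | h | h | h
  · simp
  · rw [h, hz]; exact k.zD
  · rw [h]; exact hd
  · rw [h, ← conj_mul, hz]; exact mul_mem hd k.zD

theorem key {g y r : G} (gz : g * z * g⁻¹ = z) (hy : y ∈ Q) (gd : g * d * g⁻¹ = y * u * y⁻¹) (hr : r ∈ 𝐍 D)
    (rz : r * z * r⁻¹ = z) (hT : g * r * g⁻¹ ∈ S ⊔ zpowers u) : g * r * g⁻¹ ∈ R := by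
  have yT : y ∈ S ⊔ zpowers u := mem_sup_left (k.cc.QS hy)
  have m : y⁻¹ * (g * r * g⁻¹) * y ∈ S ⊔ zpowers u := mul_mem (mul_mem (inv_mem yT) hT) yT
  have m2 : y⁻¹ * (g * r * g⁻¹) * y ∈ R := by
    rw [k.hR]
    refine ⟨m, ?_⟩
    have e : y⁻¹ * (g * r * g⁻¹) * y * u * (y⁻¹ * (g * r * g⁻¹) * y)⁻¹ = y⁻¹ * (g * (r * d * r⁻¹) * g⁻¹) * y := by
      calc _ = y⁻¹ * (g * r * g⁻¹) * (y * u * y⁻¹) * (g * r * g⁻¹)⁻¹ * y := by group
        _ = _ := by rw [← gd]; group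
    refine mem_normalizer_of_cj_le ?_
    rw [Subgroup.map_sup, MonoidHom.map_zpowers, MonoidHom.map_zpowers]
    refine sup_le (zpowers_le.2 ?_) (zpowers_le.2 ?_)
    · change _ * u * _⁻¹ ∈ _
      rw [e]
      rcases k.cd rz ((mem_normalizer_iff.1 hr d).1 k.dD) with h | h
      · rw [h, gd]
        simpa [mul_assoc] using mem_sup_left (mem_zpowers u)
      · have e2 : y⁻¹ * (g * (d * z) * g⁻¹) * y = u * (y⁻¹ * z * y⁻¹⁻¹) := by rw [← conj_mul, gd, gz]; group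
        rw [h, e2, k.Tz (inv_mem yT)]
        exact mul_mem (mem_sup_left (mem_zpowers u)) (mem_sup_right (mem_zpowers z))
    · change _ * z * _⁻¹ ∈ _
      rw [k.Tz m]
      exact mem_sup_right (mem_zpowers z)
  have := (mem_normalizer_iff.1 (k.R0.2.2.2.1 yT) _).1 m2
  simpa [mul_assoc] using this

theorem swap (two : ∀ H : Subgroup G, H.index ≠ 2) : ∃ g ∈ 𝐍 R, ∃ x ∈ Q, g * d * g⁻¹ = x * u * x⁻¹ := by
  have cc := k.cc
  have u1 : u ≠ 1 := fun e => k.uS (e ▸ one_mem _)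
  have uN := (cc.flip_nS k.h.fl k.h.fl').1
  have uu : u * u ∈ S := k.h.sq ▸ one_mem _
  obtain ⟨c, hc⟩ : ∃ c : G, c * u * c⁻¹ = z := by
    rcases Cfsg.Agent.S0111.result k.h.syl.toSylowTop S le_sup_left (card_two uN uu k.uS).2 u
      (orderOf_eq_prime (by rw [pow_two, k.h.sq]) u1) (mem_sup_right (mem_zpowers u)) k.uS with ⟨M, -, hM, -⟩ | ⟨g, hg⟩
    · exact absurd hM (two M)
    · obtain ⟨g', e⟩ := k.h.toL9.fusS hg (by rw [conj_mul, k.h.sq]; simp) (by simpa using u1) k.zD k.z1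
      exact ⟨g' * g, by rw [← e]; group⟩
  obtain ⟨x, hx, xD⟩ : ∃ x ∈ Q, x ∉ D := by
    by_contra h
    push Not at h
    have := card_le_of_le (show Q ≤ D from h)
    rw [k.h.toL9.cards.1, k.h.cD] at this
    omega
  obtain ⟨w1, w2, -⟩ := cc.winv k.h.fl k.h.sq hx
  rw [k.cz hx xD] at w2
  have wS : x * (u * x * u⁻¹) ∈ S := mul_mem (cc.QS hx) ((mem_normalizer_iff.1 uN x).1 (cc.QS hx))
  generalize x * (u * x * u⁻¹) = w at w1 w2 wS
  have wd := (cc.cen k.dD wS).eq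
  have dz := (cc.cen k.dD (k.DS k.zD)).eq
  have y1 : u * (w * d) * u⁻¹ = w * d := by
    rw [← conj_mul, w1, k.ud, dz, ← w2]; group
  have y2 : w * d * (w * d) = z := by
    calc _ = w * (d * w) * d := by group
      _ = w * w * (d * d) := by rw [wd]; group
      _ = _ := by rw [w2, k.dd, mul_one]
  have Tc : S ⊔ zpowers u ≤ 𝐜 z := fun x hx => mem_centralizer_singleton_iff.2 (mul_inv_eq_iff_eq_mul.1 (k.Tz hx))
  obtain ⟨m, hm, le⟩ := (k.h.syl.of_le Tc le_top).exists_conj_le (R := zpowers (c * (w * d) * c⁻¹))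
    (by
      rintro ⟨_, i, rfl⟩
      refine ⟨2, Subtype.ext ?_⟩
      show ((c * (w * d) * c⁻¹) ^ i) ^ 2 ^ 2 = 1
      rw [← zpow_natCast, ← zpow_mul, mul_comm i, zpow_mul, zpow_natCast, conj_pow,
        show 2 ^ 2 = 2 * 2 by norm_num, pow_mul, pow_two (w * d), y2, pow_two, k.zz]
      simp)
    (zpowers_le.2 (mem_centralizer_singleton_iff.2 (by rw [← hc, conj_mul, conj_mul, mul_inv_eq_iff_eq_mul.1 y1])))
  obtain ⟨g, hg⟩ : ∃ g, g = m * c := ⟨_, rfl⟩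
  have g1 : g * u * g⁻¹ = z := by
    calc _ = m * (c * u * c⁻¹) * m⁻¹ := by rw [hg]; group
      _ = _ := by rw [hc, mem_centralizer_singleton_iff.1 hm, mul_inv_cancel_right]
  have g2 : g * z * g⁻¹ ∈ D := by
    have mT : g * (w * d) * g⁻¹ ∈ S ⊔ zpowers u := by
      have := le (conj_mem_cj (mem_zpowers _))
      convert this using 1
      rw [hg]; group
    have := k.sqD mT (by rw [conj_mul, conj_mul, y2, k.zz]; simp)
    rwa [conj_mul, y2] at this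
  have VD : g •ᶜ (zpowers u ⊔ zpowers z) = D := by
    apply le_antisymm
    · rw [Subgroup.map_sup, MonoidHom.map_zpowers, MonoidHom.map_zpowers]
      exact sup_le (zpowers_le.2 (show g * u * g⁻¹ ∈ D from g1 ▸ k.zD)) (zpowers_le.2 g2)
    · have m1 : z ∈ g •ᶜ (zpowers u ⊔ zpowers z) := g1 ▸ conj_mem_cj (mem_sup_left (mem_zpowers u))
      have m2 : g * z * g⁻¹ ∈ g •ᶜ (zpowers u ⊔ zpowers z) := conj_mem_cj (mem_sup_right (mem_zpowers z))
      have m3 : d ∈ g •ᶜ (zpowers u ⊔ zpowers z) := by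
        rcases k.Dm _ g2 with h | h | h | h
        · exact absurd (conj_eq_one_iff.1 h) k.z1
        · rw [← g1, mul_left_inj, mul_right_inj, g1] at h
          exact absurd (h ▸ k.DS k.zD) k.uS
        · exact h ▸ m2
        · rw [h] at m2
          exact (mul_mem_cancel_right m1).1 m2
      intro e he
      rcases k.Dm e he with rfl | h | h | h
      · exact one_mem _
      · exact h ▸ m1
      · exact h ▸ m3
      · exact h ▸ mul_mem m3 m1
  have RT : R ≤ S ⊔ zpowers u := k.hR ▸ inf_le_left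
  have RV : R ≤ 𝐍 (zpowers u ⊔ zpowers z) := k.hR ▸ inf_le_right
  obtain ⟨n, hn, le2⟩ := (k.h.syl.of_le k.TD le_top).exists_conj_le (R := g •ᶜ R)
    (isPGroup_cj g (k.h.syl.pgroup.to_le RT)) (by
      intro x hx
      obtain ⟨r, hr, rfl⟩ := mem_cj'.1 hx
      refine mem_normalizer_fintype fun e he => ?_
      rw [← VD] at he ⊢
      obtain ⟨v, hv, rfl⟩ := mem_cj'.1 he
      have : g * r * g⁻¹ * (g * v * g⁻¹) * (g * r * g⁻¹)⁻¹ = g * (r * v * r⁻¹) * g⁻¹ := by group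
      rw [this]
      exact conj_mem_cj ((mem_normalizer_iff.1 (RV hr) v).1 hv))
  have a1 : ∀ r ∈ R, n * g * r * (n * g)⁻¹ ∈ S ⊔ zpowers u := fun r hr => by
    have := le2 (conj_mem_cj (conj_mem_cj hr))
    convert this using 1
    group
  have a2 : ∀ v ∈ zpowers u ⊔ zpowers z, n * g * v * (n * g)⁻¹ ∈ D := fun v hv => by
    have := (mem_normalizer_iff.1 hn _).1 (VD ▸ conj_mem_cj (g := g) hv)
    convert this using 1
    group
  generalize n * g = a at a1 a2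
  have cjc : ∀ {x y : G}, Commute (a * x * a⁻¹) (a * y * a⁻¹) ↔ Commute x y := by
    intro x y
    simp only [Commute, SemiconjBy, conj_mul, mul_left_inj, mul_right_inj]
  obtain ⟨y, hy, e⟩ := k.inv (a1 d (k.R0.2.1 k.dD)) (fun hS => by
    rcases k.cu k.dD (cjc.1 (cc.cen (a2 u (mem_sup_left (mem_zpowers u))) hS)) with h | h
    · exact k.dz (h ▸ one_mem _)
    · exact k.dz (h ▸ mem_zpowers d)) (by rw [conj_mul, k.dd]; simp)
  have az : a * z * a⁻¹ = z := by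
    have m := a2 z (mem_sup_right (mem_zpowers z))
    have c1 : Commute (a * d * a⁻¹) (a * z * a⁻¹) := cjc.2 dz
    have c2 := (cc.cen m (cc.QS hy)).symm
    rw [e] at c1
    have c3 : Commute u (a * z * a⁻¹) := by
      simpa [mul_assoc] using (c2.inv_left.mul_left c1).mul_left c2
    exact (k.cu m c3).resolve_left (by simpa using k.z1)
  exact ⟨a, mem_normalizer_fintype fun r hr => k.key az hy e (k.TD (RT hr)) (k.Tz (RT hr)) (a1 r hr), y, hy, e⟩

theorem false (two : ∀ H : Subgroup G, H.index ≠ 2) : False := by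
  have cc := k.cc
  obtain ⟨g, hg, x, hx, e⟩ := k.swap two
  obtain ⟨cR, DR, uR, TN, sq, s1, ⟨r0, hr0, s2⟩, iv⟩ := k.R0
  have RT : R ≤ S ⊔ zpowers u := k.hR ▸ inf_le_left
  have QN : Q ≤ 𝐍 R := cc.QS.trans (le_sup_left.trans TN)
  have Nz : ∀ n ∈ 𝐍 R, n * z * n⁻¹ = z := fun n hn => by
    have := s1 _ ((mem_normalizer_iff.1 hn r0).1 hr0)
    rw [conj_mul, s2] at this
    exact this.resolve_left (by simpa using k.z1)
  have cls : ∀ n ∈ 𝐍 R, n * d * n⁻¹ ∈ D ∨ ∃ x ∈ Q, n * d * n⁻¹ = x * u * x⁻¹ := fun n hn =>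
    iv _ ((mem_normalizer_iff.1 hn d).1 (DR k.dD)) (by rw [conj_mul, k.dd]; simp)
  let U : Set G := {w | ∃ y ∈ Q, y * u * y⁻¹ = w}
  have cU : U.ncard = 8 := by
    have := cnt Q u U fun _ => Iff.rfl
    have e2 : Q ⊓ 𝐜 u = zpowers z := by
      refine le_antisymm (fun y hy => ?_) (zpowers_le.2 ⟨cc.DQ k.zD, mem_centralizer_singleton_iff.2 k.uz.symm⟩)
      have c : Commute u y := (mem_centralizer_singleton_iff.1 hy.2).symm
      have m : y ∈ D := by
        rw [← cc.inf]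
        refine ⟨hy.1, ?_⟩
        have := conj_mem_cj (g := u) hy.1
        rwa [k.h.fl, c.eq, mul_inv_cancel_right] at this
      rcases k.cu m c with rfl | rfl
      · exact one_mem _
      · exact mem_zpowers _
    rw [e2, k.h.toL9.cards.1, Nat.card_zpowers, orderOf_eq_prime (by rw [pow_two, k.zz]) k.z1] at this
    omega
  have nU : ∀ s ∈ S, s ∉ U := by
    rintro _ hs ⟨y, hy, rfl⟩
    exact k.uS (by simpa [mul_assoc] using mul_mem (mul_mem (inv_mem (cc.QS hy)) hs) (cc.QS hy))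
  have dz : d ≠ d * z := fun h => k.z1 (left_eq_mul.1 h)
  have e1 := cnt (𝐍 R) d (insert d (insert (d * z) U)) fun w => by
    constructor
    · rintro (rfl | rfl | ⟨y, hy, rfl⟩)
      · exact ⟨1, one_mem _, by simp⟩
      · exact ⟨u, le_normalizer uR, k.ud⟩
      · refine ⟨y * x⁻¹ * g, mul_mem (mul_mem (QN hy) (inv_mem (QN hx))) hg, ?_⟩
        calc _ = y * x⁻¹ * (g * d * g⁻¹) * x * y⁻¹ := by group
          _ = _ := by rw [e]; group
    · rintro ⟨n, hn, rfl⟩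
      rcases cls n hn with h | ⟨y, hy, h⟩
      · exact (k.cd (Nz n hn) h).imp id Or.inl
      · exact Or.inr (Or.inr ⟨y, hy, h.symm⟩)
  rw [Set.ncard_insert_of_notMem (by
      rintro (h | h)
      · exact dz h
      · exact nU d (k.DS k.dD) h), Set.ncard_insert_of_notMem (nU _ (k.DS (mul_mem k.dD k.zD))), cU] at e1
  have e2 := cnt (𝐍 R ⊓ 𝐍 D) d {d, d * z} fun w => by
    constructor
    · rintro (rfl | rfl)
      · exact ⟨1, one_mem _, by simp⟩
      · exact ⟨u, ⟨le_normalizer uR, k.TD (RT uR)⟩, k.ud⟩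
    · rintro ⟨n, hn, rfl⟩
      exact k.cd (Nz n hn.1) ((mem_normalizer_iff.1 hn.2 d).1 k.dD)
  have e3 : 𝐍 R ⊓ 𝐍 D ⊓ 𝐜 d = 𝐍 R ⊓ 𝐜 d := by
    refine le_antisymm (inf_le_inf_right _ inf_le_left) fun n hn => ⟨⟨hn.1, k.nD (Nz n hn.1) ?_⟩, hn.2⟩
    rw [mem_centralizer_singleton_iff.1 hn.2, mul_inv_cancel_right]
    exact k.dD
  rw [Set.ncard_pair dz, e3] at e2
  refine five (N := 𝐍 R) (M := 𝐍 D) ?_ (le_inf TN k.TD) k.h.syl k.h.nT RT le_rfl ?_ sq ?_
  · have := card_mul_index ((𝐍 R ⊓ 𝐍 D).subgroupOf (𝐍 R))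
    rw [Nat.card_congr (subgroupOfEquivOfLe inf_le_left).toEquiv, e1, e2] at this
    have p : 0 < ♯(𝐍 R ⊓ 𝐜 d) := Nat.card_pos
    refine Nat.eq_of_mul_eq_mul_left (Nat.mul_pos two_pos p) (this.trans ?_)
    ring
  · rw [(card_two (cc.flip_nS k.h.fl k.h.fl').1 (k.h.sq ▸ one_mem _) k.uS).1, k.h.toL9.cards.2.2, cR]
  · intro v hv a ha aM hM
    rcases cls a ha with h | ⟨y, hy, h⟩
    · exact absurd (k.nD (Nz a ha) h) aM
    · have := k.key (Nz a ha) hy h hM (Nz _ (mul_mem (mul_mem (inv_mem ha) (TN hv)) ha)) (by simpa [mul_assoc] using hv)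
      simpa [mul_assoc] using this

end Dt

end CL.So5.XbB
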