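import Cfsg.Agent.PERM.So5.Xc0

/-!
S3568 (suborbit of length five): a transvection on an elementary subgroup of order eight.
-/

set_option autoImplicit false
set_option linter.unusedSectionVars false

namespace CL.So5.Xc3a

open Subgroup Cfsg CL.MSS
open scoped commutatorElement

variable {G : Type*} [Group G] [Finite G]

variable {S Q Q' D : Subgroup G} {t γ φ z d a : G}

theorem trv (h : Ld S Q Q' D t γ φ z d a) {X : Subgroup G} (hX : X ≤ S ⊔ zpowers φ ⊔ zpowers γ) (el : ∀ v ∈ X, v * v = 1) (c : ♯X = 8) (hS : ¬ X ≤ S) :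
    ∃ x : G, Commute x z ∧ (∀ v ∈ X, x * v * x⁻¹ = v ∨ x * v * x⁻¹ = v * z) ∧ ∃ v ∈ X, x * v * x⁻¹ = v * z := by
  have cc := h.toLc.toL9.toCc
  have lp := h.toLc.lp
  have DS : D ≤ S := cc.DQ.trans cc.QS
  have dd := cc.el d (cc.DQ h.dD)
  have ds : ∀ s ∈ S, d * s * d⁻¹ = s := fun s hs => by rw [(cc.cen h.dD hs).eq, mul_inv_cancel_right]
  have dγ : d * γ * d⁻¹ = γ := by rw [h.γD d h.dD, mul_inv_cancel_right]
  have zγ : Commute z γ := h.γD z h.zD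
  have dφ : d * φ * d⁻¹ = φ * z := by
    have e : φ * d = d * z * φ := by rw [← h.φd, inv_mul_cancel_right]
    rw [inv_eq_of_mul_eq_one_right dd, mul_assoc, e, ← mul_assoc, ← mul_assoc, dd, one_mul, h.φz.eq]
  have d1 : ∀ s ∈ S, d * (s * φ) * d⁻¹ = s * φ * z := fun s hs => by
    rw [← conj_mul, ds s hs, dφ, mul_assoc]
  have d2 : ∀ s ∈ S, d * (s * (φ * γ)) * d⁻¹ = s * (φ * γ) * z := fun s hs => by
    rw [← conj_mul, ← conj_mul, ds s hs, dφ, dγ, mul_assoc φ, zγ.eq]; group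
  by_cases hv : ∃ v ∈ X, d * v * d⁻¹ = v * z
  · refine ⟨d, cc.cen h.dD (DS h.zD), fun v hv => ?_, hv⟩
    obtain ⟨s, hs, rfl | rfl | rfl | rfl⟩ := lp.mem (hX hv)
    · exact Or.inl (ds _ hs)
    · exact Or.inr (d1 s hs)
    · exact Or.inl (by rw [← conj_mul, ds s hs, dγ])
    · exact Or.inr (d2 s hs)
  have mem : ∀ v ∈ X, v ∈ S ∨ ∃ s ∈ S, v = s * γ := fun v hx => by
    obtain ⟨s, hs, rfl | rfl | rfl | rfl⟩ := lp.mem (hX hx)
    · exact Or.inl hs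
    · exact (hv ⟨_, hx, d1 s hs⟩).elim
    · exact Or.inr ⟨s, hs, rfl⟩
    · exact (hv ⟨_, hx, d2 s hs⟩).elim
  obtain ⟨g, hg, gS⟩ := SetLike.not_le_iff_exists.1 hS
  obtain ⟨s, hs, e⟩ := (mem g hg).resolve_left gS
  obtain ⟨f1, f2⟩ := e ▸ cc.flip_mul h.fl h.fl' hs
  have XD : X ⊓ S ≤ D := cc.le_D f1 f2 inf_le_right (fun v hv => el v hv.1)
    (centralizer_le_normalizer _ fun v hv => Cc.cm2 el hv.1 hg)
  obtain ⟨-, -, a3, -⟩ := cc.winv f1 (el g hg) h.aQ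
  have bQ : γ * a * γ⁻¹ ∈ Q' := h.fl ▸ conj_mem_cj h.aQ
  have b'Q : g * a * g⁻¹ ∈ Q' := f1 ▸ conj_mem_cj h.aQ
  have aS := cc.QS h.aQ
  have e1 : ⁅a, g * a * g⁻¹⁆ = z := by
    have q := cc.cm s hs _ (cc.symm.QS bQ)
    have e2 : g * a * g⁻¹ = ⁅s, γ * a * γ⁻¹⁆ * (γ * a * γ⁻¹) := by
      rw [e, commutatorElement_def]; group
    rw [e2, cc.cmr aS (DS q) (cc.symm.QS bQ), h.ab,
      commutatorElement_eq_one_iff_commute.2 (cc.cen q aS).symm, one_mul]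
  rw [e1] at a3
  have wS : a * (g * a * g⁻¹) ∈ S := mul_mem aS (cc.symm.QS b'Q)
  generalize a * (g * a * g⁻¹) = w at a3 wS
  have wD : ∀ v ∈ D, w * v * w⁻¹ = v := fun v hv => by rw [← (cc.cen hv wS).eq, mul_inv_cancel_right]
  refine ⟨w, (cc.cen h.zD wS).symm, fun v hv => ?_, g, hg, a3⟩
  rcases mem v hv with q | ⟨s', hs', q⟩
  · exact Or.inl (wD v (XD ⟨hv, q⟩))
  · have k : v * g⁻¹ ∈ D := XD ⟨X.mul_mem hv (X.inv_mem hg), by
      rw [q, e, mul_inv_rev, ← mul_assoc, mul_inv_cancel_right]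
      exact S.mul_mem hs' (S.inv_mem hs)⟩
    refine Or.inr ?_
    rw [← inv_mul_cancel_right v g, ← conj_mul, wD _ k, a3, mul_assoc (v * g⁻¹)]

end CL.So5.Xc3a
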